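import Cfsg.Agent.H209.PiSpor.ToolsV

/-!
# S4324, sporadic rows: primes `p` with `s ∣ p - 1` (helper626)

`ni_of_gl` : `p ^ 2 ∤ |G|`, `s ^ 2 ∤ p - 1`, a subgroup `A` of order `s ^ 2` none of whose elements of order `s` commutes with an
element of order `p`, and an element of order `s` not central in a Sylow `s`-subgroup: `NI s p G`.

* `exists_comm_conj` : invariant subgroups of order `p` under a coprime `s`-group are conjugate under the fixed points.
* If `g` of order `p` violates the theorem then `C(g)` has order prime to `s` or `N(⟨g⟩)` contains a Sylow `s`-subgroup.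
* In the first case all subgroups of order `s` are conjugate.
-/

set_option autoImplicit false
set_option linter.unusedSectionVars false
set_option linter.unusedVariables false

namespace Cfsg.Agent.H626.PiSpor

open Subgroup Cfsg Cfsg.Agent.H216.Pi Cfsg.Agent.H209.PiSpor

variable {G : Type*} [Group G]

/-- subgroups of order `p` of `V` are conjugate in `V` -/
theorem exists_conj_in' [Finite G] {p : ℕ} (hp : p.Prime) {V : Subgroup G} (hV : ¬ p ^ 2 ∣ Nat.card V) {g h : G}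
    (hg : orderOf g = p) (hh : orderOf h = p) (hgV : g ∈ V) (hhV : h ∈ V) : ∃ v ∈ V, v * g * v⁻¹ ∈ zpowers h := by
  have : Fact p.Prime := ⟨hp⟩
  have key : ∀ w : V, orderOf w = p → ¬ p ∣ (zpowers w).index := by
    intro w hw h1
    apply hV
    rw [← (zpowers w).card_mul_index, Nat.card_zpowers, hw, pow_two]
    exact Nat.mul_dvd_mul_left p h1
  have hpg : ∀ w : V, orderOf w = p → IsPGroup p ↥(zpowers w) := fun w hw =>
    IsPGroup.of_card (n := 1) (by rw [Nat.card_zpowers, hw, pow_one])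
  have hg' : orderOf (⟨g, hgV⟩ : V) = p := by rw [Subgroup.orderOf_mk, hg]
  have hh' : orderOf (⟨h, hhV⟩ : V) = p := by rw [Subgroup.orderOf_mk, hh]
  obtain ⟨v, hv⟩ := MulAction.exists_smul_eq V ((hpg _ hg').toSylow (key _ hg')) ((hpg _ hh').toSylow (key _ hh'))
  have hv' : (zpowers (⟨g, hgV⟩ : V)).map (MulAut.conj v).toMonoidHom = zpowers (⟨h, hhV⟩ : V) :=
    congrArg Sylow.toSubgroup hv
  have h3 : v * ⟨g, hgV⟩ * v⁻¹ ∈ zpowers (⟨h, hhV⟩ : V) := by
    rw [← hv']
    exact ⟨⟨g, hgV⟩, mem_zpowers _, rfl⟩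
  obtain ⟨i, hi⟩ := mem_zpowers_iff.1 h3
  exact ⟨v, v.2, mem_zpowers_iff.2 ⟨i, congrArg Subtype.val hi⟩⟩

theorem exists_conj_in [Finite G] {p : ℕ} (hp : p.Prime) (h2 : ¬ p ^ 2 ∣ Nat.card G) {V : Subgroup G} {g h : G}
    (hg : orderOf g = p) (hh : orderOf h = p) (hgV : g ∈ V) (hhV : h ∈ V) : ∃ v ∈ V, v * g * v⁻¹ ∈ zpowers h :=
  exists_conj_in' hp (fun h => h2 (h.trans (card_subgroup_dvd_card V))) hg hh hgV hhV

theorem conj_mem_zpowers {g h v : G} (hvg : v * g * v⁻¹ ∈ zpowers h) {w : G} (hw : w ∈ zpowers g) :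
    v * w * v⁻¹ ∈ zpowers h := by
  obtain ⟨i, rfl⟩ := mem_zpowers_iff.1 hw
  have e : v * g ^ i * v⁻¹ = (v * g * v⁻¹) ^ i := by rw [conj_zpow]
  rw [e]
  exact zpow_mem hvg i

theorem orderOf_conj'' (v g : G) : orderOf (v * g * v⁻¹) = orderOf g := by
  have := orderOf_injective (MulAut.conj v).toMonoidHom (MulAut.conj v).injective g
  simpa using this

/-- a conjugate of `g` in `⟨h⟩` generates `⟨h⟩` -/
theorem zpowers_eq [Finite G] {p : ℕ} (hp : p.Prime) {g h v : G} (hg : orderOf g = p) (hh : orderOf h = p)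
    (hv : v * g * v⁻¹ ∈ zpowers h) : zpowers (v * g * v⁻¹) = zpowers h := by
  refine Subgroup.eq_of_le_of_card_ge (by rwa [zpowers_le]) ?_
  rw [Nat.card_zpowers, Nat.card_zpowers, hh, orderOf_conj'', hg]

/-- the conjugating elements form a coset -/
theorem conj_mem_back [Finite G] {p : ℕ} (hp : p.Prime) {g h v : G} (hg : orderOf g = p) (hh : orderOf h = p)
    (hv : v * g * v⁻¹ ∈ zpowers h) {w : G} (hw : w ∈ zpowers h) : v⁻¹ * w * v ∈ zpowers g := by
  rw [← zpowers_eq hp hg hh hv] at hw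
  obtain ⟨i, rfl⟩ := mem_zpowers_iff.1 hw
  have e : v⁻¹ * (v * g * v⁻¹) ^ i * v = g ^ i := by rw [conj_zpow]; group
  rw [e]
  exact zpow_mem (mem_zpowers g) i

/-- **Invariant subgroups of order `p`** under a coprime `s`-group are conjugate under the fixed points. -/
theorem exists_comm_conj [Finite G] {s p : ℕ} (hs : s.Prime) (hp : p.Prime) (h2 : ¬ p ^ 2 ∣ Nat.card G)
    {T V : Subgroup G} (hT : IsPGroup s T) (hsV : ¬ s ∣ Nat.card V) (hTV : ∀ t ∈ T, ∀ v ∈ V, t * v * t⁻¹ ∈ V)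
    {g g' : G} (hg : orderOf g = p) (hg' : orderOf g' = p) (hgV : g ∈ V) (hgV' : g' ∈ V)
    (hTg : ∀ t ∈ T, t * g * t⁻¹ ∈ zpowers g) (hTg' : ∀ t ∈ T, t * g' * t⁻¹ ∈ zpowers g') :
    ∃ v ∈ V, (∀ t ∈ T, t * v = v * t) ∧ v * g * v⁻¹ ∈ zpowers g' := by
  have : Fact s.Prime := ⟨hs⟩
  obtain ⟨v₀, hv₀, hc₀⟩ := exists_conj_in hp h2 hg hg' hgV hgV'
  let X : Type _ := {v : G // v ∈ V ∧ v * g * v⁻¹ ∈ zpowers g'}
  let Y : Subgroup G := V ⊓ normalizer (zpowers g : Set G)
  have hY : ∀ v : G, v ∈ normalizer (zpowers g : Set G) ↔ v * g * v⁻¹ ∈ zpowers g := by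
    intro v
    constructor
    · intro h
      exact (mem_normalizer_iff.1 h g).1 (mem_zpowers g)
    · intro h
      rw [mem_normalizer_iff]
      intro w
      constructor
      · intro hw; exact conj_mem_zpowers h hw
      · intro hw
        have h3 := conj_mem_back hp hg hg h hw
        have e : v⁻¹ * (v * w * v⁻¹) * v = w := by group
        rwa [e] at h3
  have hX : Nat.card X = Nat.card Y := by
    refine Nat.card_congr
      { toFun := fun v => ⟨v₀⁻¹ * v.1, ?_⟩
        invFun := fun y => ⟨v₀ * y.1, ?_⟩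
        left_inv := fun v => Subtype.ext (mul_inv_cancel_left _ _)
        right_inv := fun y => Subtype.ext (inv_mul_cancel_left _ _) }
    · refine mem_inf.2 ⟨V.mul_mem (V.inv_mem hv₀) v.2.1, (hY _).2 ?_⟩
      have h3 := conj_mem_back hp hg hg' hc₀ v.2.2
      have e : v₀⁻¹ * v.1 * g * (v₀⁻¹ * v.1)⁻¹ = v₀⁻¹ * (v.1 * g * v.1⁻¹) * v₀ := by group
      rwa [e]
    · obtain ⟨h3, h4⟩ := mem_inf.1 y.2
      refine ⟨V.mul_mem hv₀ h3, ?_⟩
      have h5 := conj_mem_zpowers hc₀ ((hY _).1 h4)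
      have e : v₀ * y.1 * g * (v₀ * y.1)⁻¹ = v₀ * (y.1 * g * y.1⁻¹) * v₀⁻¹ := by group
      rwa [e]
  have hsX : ¬ s ∣ Nat.card X := by
    rw [hX]
    exact fun h => hsV (h.trans (card_dvd_of_le inf_le_left))
  let act : MulAction T X :=
    { smul := fun t v => ⟨t.1 * v.1 * t.1⁻¹, hTV t.1 t.2 v.1 v.2.1, by
        have h3 := hTg t.1⁻¹ (T.inv_mem t.2)
        rw [inv_inv] at h3
        have h4 := conj_mem_zpowers v.2.2 h3
        have h5 := conj_mem_zpowers (hTg' t.1 t.2) h4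
        have e : t.1 * v.1 * t.1⁻¹ * g * (t.1 * v.1 * t.1⁻¹)⁻¹ =
          t.1 * (v.1 * (t.1⁻¹ * g * t.1) * v.1⁻¹) * t.1⁻¹ := by group
        rwa [e]⟩
      one_smul := fun v => Subtype.ext (by
        show (1 : G) * v.1 * 1⁻¹ = v.1
        group)
      mul_smul := fun a b v => Subtype.ext (by
        show (a.1 * b.1) * v.1 * (a.1 * b.1)⁻¹ = a.1 * (b.1 * v.1 * b.1⁻¹) * a.1⁻¹
        group) }
  have : Finite X := Finite.of_injective (fun v : X => v.1) Subtype.val_injective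
  obtain ⟨v, hv⟩ := hT.nonempty_fixed_point_of_prime_not_dvd_card X hsX
  refine ⟨v.1, v.2.1, fun t ht => ?_, v.2.2⟩
  have h3 : t * v.1 * t⁻¹ = v.1 := congrArg Subtype.val (hv ⟨t, ht⟩)
  rwa [mul_inv_eq_iff_eq_mul] at h3

/-- **`N(T)` normalises `C_T(g)`.** -/
theorem norm_cent [Finite G] {s p m : ℕ} (hs : s.Prime) (hp : p.Prime) (hm : 2 ≤ m) (hc : center G = ⊥)
    (h2 : ¬ p ^ 2 ∣ Nat.card G) {g : G} (hg : orderOf g = p) (hFC : FC s m (MulAut.conj g)) {T : Subgroup G}
    (hT : IsPGroup s T) (hTg : ∀ t ∈ T, t * g * t⁻¹ ∈ zpowers g) {r : G} (hr : r ∈ normalizer (T : Set G)) {q : G}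
    (hq : q ∈ T) (hqg : q * g = g * q) : (r * q * r⁻¹) * g = g * (r * q * r⁻¹) := by
  set g' : G := r * g * r⁻¹ with hg'
  have hgo : orderOf g' = p := by rw [hg', orderOf_conj'', hg]
  have h1 := fc_closure hs hc hFC (fun i => if (i : ℕ) = 0 then 1 else r)
  set V : Subgroup G := closure (Set.range fun i : Fin m =>
    (if (i : ℕ) = 0 then (1 : G) else r) * g * (if (i : ℕ) = 0 then (1 : G) else r)⁻¹) with hV
  have hgV : g ∈ V := subset_closure ⟨⟨0, by omega⟩, by simp⟩
  have hgV' : g' ∈ V := subset_closure ⟨⟨1, by omega⟩, by simp [hg']⟩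
  have hTg' : ∀ t ∈ T, t * g' * t⁻¹ ∈ zpowers g' := by
    intro t ht
    have h3 : r⁻¹ * t * r ∈ T := by
      have := (mem_normalizer_iff.1 ((normalizer (T : Set G)).inv_mem hr) t).1 ht
      simpa using this
    obtain ⟨i, hi⟩ := mem_zpowers_iff.1 (hTg _ h3)
    refine mem_zpowers_iff.2 ⟨i, ?_⟩
    rw [hg', conj_zpow, hi]
    group
  have hTV : ∀ t ∈ T, ∀ v ∈ V, t * v * t⁻¹ ∈ V := by
    intro t ht
    have h3 : V ≤ V.comap (MulAut.conj t).toMonoidHom := by
      rw [hV, closure_le]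
      rintro _ ⟨i, rfl⟩
      rw [← hV]
      show t * _ * t⁻¹ ∈ V
      by_cases hi : (i : ℕ) = 0
      · simp only [hi, if_true, one_mul, inv_one, mul_one]
        exact (zpowers_le.2 hgV) (hTg t ht)
      · simp only [hi, if_false]
        exact (zpowers_le.2 hgV') (hTg' t ht)
    exact fun v hv => h3 hv
  obtain ⟨v, -, hvT, hv⟩ := exists_comm_conj hs hp h2 hT h1 hTV hg hgo hgV hgV' hTg hTg'
  -- `r q r⁻¹` commutes with `g'`, hence with `v g v⁻¹`
  have hrq : r * q * r⁻¹ ∈ T := (mem_normalizer_iff.1 hr q).1 hq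
  have h3 : Commute (r * q * r⁻¹) g' := by
    show r * q * r⁻¹ * (r * g * r⁻¹) = r * g * r⁻¹ * (r * q * r⁻¹)
    calc r * q * r⁻¹ * (r * g * r⁻¹) = r * (q * g) * r⁻¹ := by group
      _ = r * (g * q) * r⁻¹ := by rw [hqg]
      _ = _ := by group
  obtain ⟨i, hi⟩ := mem_zpowers_iff.1 hv
  have h4 : Commute (r * q * r⁻¹) (v * g * v⁻¹) := by
    rw [← hi]
    exact h3.zpow_right i
  have h5 := hvT _ hrq
  have h6 : v⁻¹ * (r * q * r⁻¹) * v = r * q * r⁻¹ := by
    rw [mul_assoc, h5]; group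
  calc r * q * r⁻¹ * g = v⁻¹ * (r * q * r⁻¹) * v * g := by rw [h6]
    _ = v⁻¹ * ((r * q * r⁻¹) * (v * g * v⁻¹)) * v := by group
    _ = v⁻¹ * ((v * g * v⁻¹) * (r * q * r⁻¹)) * v := by rw [h4.eq]
    _ = g * (v⁻¹ * (r * q * r⁻¹) * v) := by group
    _ = g * (r * q * r⁻¹) := by rw [h6]

/-! ### The Frattini argument -/

section Main

variable [Finite G] {s p : ℕ}

theorem pow_dvd_normalizer (hs : s.Prime) (hp : p.Prime) (h2 : ¬ p ^ 2 ∣ Nat.card G) {g : G}
    (hg : orderOf g = p) {M : Subgroup G} (hgM : g ∈ coreIn s M) {k : ℕ} (hk : s ^ k ∣ Nat.card M) :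
    s ^ k ∣ Nat.card (normalizer (zpowers g : Set G)) := by
  have hnC : (pPrimeCore s M).Normal := Lib.Cores.pPrimeCore_normal s
  have hcop : (Nat.card (pPrimeCore s M)).Coprime s := Lib.Cores.pPrimeCore_coprime s
  let N' : Subgroup M := (normalizer (zpowers g : Set G)).subgroupOf M
  have hsurj : Function.Surjective ((QuotientGroup.mk' (pPrimeCore s M)).comp N'.subtype) := by
    intro c
    obtain ⟨m, rfl⟩ := QuotientGroup.mk'_surjective _ c
    have h1 : (m : G) * g * (m : G)⁻¹ ∈ coreIn s M := coreIn_conj_mem m.2 hgM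
    obtain ⟨c, hc, hcg⟩ := exists_conj_in hp h2 hg (by rw [orderOf_conj'', hg]) hgM h1
    have h3 : (c⁻¹ * (m : G)) * g * (c⁻¹ * (m : G))⁻¹ ∈ zpowers g := by
      have h4 := conj_mem_back hp hg (by rw [orderOf_conj'', hg]) hcg (mem_zpowers _)
      have e : c⁻¹ * (m : G) * g * (c⁻¹ * (m : G))⁻¹ = c⁻¹ * ((m : G) * g * (m : G)⁻¹) * c := by group
      rwa [e]
    have h5 : c⁻¹ * (m : G) ∈ normalizer (zpowers g : Set G) := by
      rw [mem_normalizer_iff]
      intro w
      constructor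
      · intro hw; exact conj_mem_zpowers h3 hw
      · intro hw
        have h6 := conj_mem_back hp hg hg h3 hw
        have e : (c⁻¹ * (m : G))⁻¹ * ((c⁻¹ * (m : G)) * w * (c⁻¹ * (m : G))⁻¹) * (c⁻¹ * (m : G)) = w := by group
        rwa [e] at h6
    have hcM := coreIn_le M hc
    refine ⟨⟨⟨c, hcM⟩⁻¹ * m, mem_subgroupOf.2 h5⟩, ?_⟩
    show QuotientGroup.mk' (pPrimeCore s M) (⟨c, hcM⟩⁻¹ * m) = QuotientGroup.mk' (pPrimeCore s M) m
    rw [map_mul, map_inv]
    have h7 : QuotientGroup.mk' (pPrimeCore s M) ⟨c, hcM⟩ = 1 :=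
      (QuotientGroup.eq_one_iff _).2 (mem_coreIn_coe.1 hc)
    rw [h7, inv_one, one_mul]
  have h8 := Subgroup.card_dvd_of_surjective _ hsurj
  rw [Subgroup.card_eq_card_quotient_mul_card_subgroup (pPrimeCore s M)] at hk
  have h9 : s ^ k ∣ Nat.card (M ⧸ pPrimeCore s M) :=
    (Nat.Coprime.pow_left k hcop.symm).dvd_of_dvd_mul_right hk
  refine (h9.trans h8).trans ?_
  have h10 : Nat.card N' = Nat.card ((normalizer (zpowers g : Set G)) ⊓ M : Subgroup G) := by
    have e : Nat.card (N'.map M.subtype) = Nat.card N' := Subgroup.card_map_of_injective M.subtype_injective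
    rw [← e]
    congr 1
    rw [Subgroup.subgroupOf_map_subtype]
  rw [h10]
  exact card_dvd_of_le inf_le_left

theorem pow_dvd_of_comm (hs : s.Prime) (hp : p.Prime) (hps : p ≠ s) (hc : center G = ⊥) (h2 : ¬ p ^ 2 ∣ Nat.card G)
    {g : G} (hg : orderOf g = p) (hPC : PC s (MulAut.conj g)) {z : G} (hz : z ≠ 1) (hzg : z * g = g * z) {k : ℕ}
    (hk : s ^ k ∣ Nat.card (centralizer ({z} : Set G))) : s ^ k ∣ Nat.card (normalizer (zpowers g : Set G)) := by
  refine pow_dvd_normalizer hs hp h2 hg (hPC.mem_coreIn hp hps hs hg ?_ ?_) hk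
  · intro h
    apply hz
    have h1 : z ∈ center G := by
      rw [mem_center_iff]
      intro x
      exact (mem_centralizer_singleton_iff.1 (h ▸ mem_top x : x ∈ centralizer ({z} : Set G)))
    rwa [hc, mem_bot] at h1
  · exact mem_centralizer_singleton_iff.2 hzg.symm

/-- **A Sylow `s`-subgroup `T` of `N(⟨g⟩)` meeting `C(g)` is a Sylow `s`-subgroup of `G`.** -/
theorem not_dvd_card (hs : s.Prime) (hp : p.Prime) (hps : p ≠ s) {m : ℕ} (hm : 2 ≤ m) (hc : center G = ⊥)
    (h2 : ¬ p ^ 2 ∣ Nat.card G) {g : G} (hg : orderOf g = p) (hPC : PC s (MulAut.conj g))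
    (hFC : FC s m (MulAut.conj g)) {a : ℕ} (ha : ¬ s ^ (a + 1) ∣ Nat.card (normalizer (zpowers g : Set G)))
    {T : Subgroup G} (hT : Nat.card T = s ^ a) (hTN : T ≤ normalizer (zpowers g : Set G)) {q : G} (hq : q ∈ T)
    (hq1 : q ≠ 1) (hqg : q * g = g * q) : ¬ s ^ (a + 1) ∣ Nat.card G := by
  intro hd
  have hsf : Fact s.Prime := ⟨hs⟩
  obtain ⟨R, hR, hTR⟩ := Sylow.exists_subgroup_card_pow_succ hd hT
  have hTp : IsPGroup s T := IsPGroup.of_card hT
  have hRp : IsPGroup s R := IsPGroup.of_card hR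
  have hTg : ∀ t ∈ T, t * g * t⁻¹ ∈ zpowers g := fun t ht => (mem_normalizer_iff.1 (hTN ht) g).1 (mem_zpowers g)
  -- `T` is normal in `R`
  have hTn : (T.subgroupOf R).Normal := by
    refine Subgroup.normal_of_index_eq_minFac_card ?_
    have h3 : (T.subgroupOf R).index * s ^ a = s ^ (a + 1) := by
      rw [← hR, ← (T.subgroupOf R).card_mul_index, Nat.card_congr (subgroupOfEquivOfLe hTR).toEquiv, hT, mul_comm]
    have h4 : (T.subgroupOf R).index = s := by
      rw [pow_succ'] at h3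
      exact Nat.eq_of_mul_eq_mul_right (pow_pos hs.pos a) h3
    rw [h4, hR, hs.pow_minFac (Nat.succ_ne_zero a)]
  have hRN : ∀ r ∈ R, r ∈ normalizer (T : Set G) := by
    intro r hr
    rw [mem_normalizer_iff]
    have key : ∀ r ∈ R, ∀ t ∈ T, r * t * r⁻¹ ∈ T := by
      intro r hr t ht
      have h5 := hTn.conj_mem ⟨t, hTR ht⟩ (mem_subgroupOf.2 ht) ⟨r, hr⟩
      exact mem_subgroupOf.1 h5
    intro t
    refine ⟨key r hr t, fun h => ?_⟩
    have h5 := key r⁻¹ (R.inv_mem hr) _ h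
    have e : r⁻¹ * (r * t * r⁻¹) * r⁻¹⁻¹ = t := by group
    rwa [e] at h5
  -- the action of `R` on `Q = C_T(g)`
  let Q : Subgroup G := T ⊓ centralizer ({g} : Set G)
  have hQ : ∀ r ∈ R, ∀ x ∈ Q, r * x * r⁻¹ ∈ Q := by
    intro r hr x hx
    obtain ⟨h5, h6⟩ := mem_inf.1 hx
    refine mem_inf.2 ⟨(mem_normalizer_iff.1 (hRN r hr) x).1 h5, mem_centralizer_singleton_iff.2 ?_⟩
    exact norm_cent hs hp hm hc h2 hg hFC hTp hTg (hRN r hr) h5 (mem_centralizer_singleton_iff.1 h6)
  let act : MulAction R Q :=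
    { smul := fun r x => ⟨r.1 * x.1 * r.1⁻¹, hQ r.1 r.2 x.1 x.2⟩
      one_smul := fun x => Subtype.ext (by
        show (1 : G) * x.1 * 1⁻¹ = x.1
        group)
      mul_smul := fun a b x => Subtype.ext (by
        show (a.1 * b.1) * x.1 * (a.1 * b.1)⁻¹ = a.1 * (b.1 * x.1 * b.1⁻¹) * a.1⁻¹
        group) }
  have hQp : IsPGroup s Q := hTp.to_le inf_le_left
  have hqQ : q ∈ Q := mem_inf.2 ⟨hq, mem_centralizer_singleton_iff.2 hqg⟩
  have hQs : s ∣ Nat.card Q := by
    obtain ⟨k, hk⟩ := IsPGroup.iff_card.1 hQp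
    rcases Nat.eq_zero_or_pos k with rfl | hk0
    · rw [pow_zero] at hk
      have h5 := Subgroup.eq_bot_of_card_eq _ hk
      rw [h5, mem_bot] at hqQ
      exact absurd hqQ hq1
    · rw [hk]
      exact dvd_pow_self s hk0.ne'
  have h1f : (1 : Q) ∈ MulAction.fixedPoints R Q := by
    intro r
    apply Subtype.ext
    show r.1 * (1 : G) * r.1⁻¹ = 1
    group
  obtain ⟨z, hz, hz1⟩ := hRp.exists_fixed_point_of_prime_dvd_card_of_fixed_point Q hQs h1f
  have hz1' : (z : G) ≠ 1 := fun h => hz1 (Subtype.ext h.symm)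
  obtain ⟨h5, h6⟩ := mem_inf.1 z.2
  refine ha (pow_dvd_of_comm hs hp hps hc h2 hg hPC hz1' (mem_centralizer_singleton_iff.1 h6) ?_)
  rw [← hR]
  refine card_dvd_of_le ?_
  intro r hr
  rw [mem_centralizer_singleton_iff]
  have h7 : r * (z : G) * r⁻¹ = z := congrArg Subtype.val (hz ⟨r, hr⟩)
  rwa [mul_inv_eq_iff_eq_mul] at h7

/-- a group of order `s ^ 2` normalising `⟨g⟩` -/
theorem exists_comm_of_sq (hs : s.Prime) (hp : p.Prime) (hsp : ¬ s ^ 2 ∣ p - 1) {g : G} (hg : orderOf g = p)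
    {A : Subgroup G} (hA : Nat.card A = s ^ 2) (hAN : A ≤ normalizer (zpowers g : Set G)) :
    ∃ a ∈ A, orderOf a = s ∧ a * g = g * a := by
  have hsf : Fact s.Prime := ⟨hs⟩
  let φ : A →* MulAut (zpowers g) := ((zpowers g).normalizerMonoidHom).comp (inclusion hAN)
  have hcard : Nat.card (MulAut (zpowers g)) = p - 1 := by
    rw [IsCyclic.card_mulAut, Nat.card_zpowers, hg, Nat.totient_prime hp]
  have hni : ¬ Function.Injective φ := by
    intro h
    apply hsp
    rw [← hcard, ← hA]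
    exact Subgroup.card_dvd_of_injective φ h
  have h1 : φ.ker ≠ ⊥ := fun h => hni ((MonoidHom.ker_eq_bot_iff φ).1 h)
  have hkp : IsPGroup s φ.ker := (IsPGroup.of_card hA).to_subgroup _
  have h2 : s ∣ Nat.card φ.ker := by
    obtain ⟨k, hk⟩ := IsPGroup.iff_card.1 hkp
    rcases Nat.eq_zero_or_pos k with rfl | hk0
    · rw [pow_zero] at hk
      exact absurd (Subgroup.eq_bot_of_card_eq _ hk) h1
    · rw [hk]
      exact dvd_pow_self s hk0.ne'
  obtain ⟨a, ha⟩ := exists_prime_orderOf_dvd_card' s h2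
  refine ⟨a, a.1.2, ?_, ?_⟩
  · rw [Subgroup.orderOf_coe, Subgroup.orderOf_coe, ha]
  · have h3 : φ a.1 = 1 := a.2
    have h4 := congrArg (fun f : MulAut (zpowers g) => ((f ⟨g, mem_zpowers g⟩ : zpowers g) : G)) h3
    have h5 : ((a : A) : G) * g * ((a : A) : G)⁻¹ = g := h4
    rwa [mul_inv_eq_iff_eq_mul] at h5

/-- an element of order `s` normalises a conjugate of `⟨g⟩` -/
theorem exists_norm (hs : s.Prime) (hp : p.Prime) (hc : center G = ⊥) (h2 : ¬ p ^ 2 ∣ Nat.card G) {g : G}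
    (hg : orderOf g = p) (hFC : FC s (mm s) (MulAut.conj g)) {w : G} (hw : orderOf w = s) :
    ∃ x : G, x * w * x⁻¹ ∈ normalizer (zpowers g : Set G) := by
  have hFC' := hFC.mono (le_mm (s := s))
  have h1 := fc_closure hs hc hFC' (fun i => w ^ (i : ℕ))
  have : Fact s.Prime := ⟨hs⟩
  have : Fact p.Prime := ⟨hp⟩
  set V : Subgroup G := closure (Set.range fun i : Fin s => w ^ (i : ℕ) * g * (w ^ (i : ℕ))⁻¹) with hV
  have hgV : g ∈ V := subset_closure ⟨⟨0, hs.pos⟩, by simp⟩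
  have hinv : ∀ v ∈ V, w * v * w⁻¹ ∈ V := by
    have h2 : V ≤ V.comap (MulAut.conj w).toMonoidHom := by
      rw [hV, closure_le]
      rintro _ ⟨i, rfl⟩
      show w * (w ^ (i : ℕ) * g * (w ^ (i : ℕ))⁻¹) * w⁻¹ ∈ V
      have e : w * (w ^ (i : ℕ) * g * (w ^ (i : ℕ))⁻¹) * w⁻¹ = w ^ ((i : ℕ) + 1) * g * (w ^ ((i : ℕ) + 1))⁻¹ := by
        rw [pow_succ']; group
      rw [e]
      by_cases hi : (i : ℕ) + 1 < s
      · exact subset_closure ⟨⟨(i : ℕ) + 1, hi⟩, rfl⟩
      · have hi' : (i : ℕ) + 1 = s := by have := i.2; omega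
        rw [hi', ← hw, pow_orderOf_eq_one]
        simpa using hgV
    exact fun v hv => h2 hv
  have hwV : w ∈ normalizer (V : Set G) := by
    rw [mem_normalizer_iff]
    intro v
    refine ⟨hinv v, fun h => ?_⟩
    have h1 : ∀ n : ℕ, ∀ v ∈ V, w ^ n * v * (w ^ n)⁻¹ ∈ V := by
      intro n
      induction n with
      | zero => intro v hv; simpa using hv
      | succ n ih =>
        intro v hv
        have e : w ^ (n + 1) * v * (w ^ (n + 1))⁻¹ = w ^ n * (w * v * w⁻¹) * (w ^ n)⁻¹ := by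
          rw [pow_succ]; group
        rw [e]
        exact ih _ (hinv v hv)
    have h2 := h1 (s - 1) _ h
    have h3 : w ^ (s - 1) * w = 1 := by
      rw [← pow_succ, Nat.sub_add_cancel hs.one_lt.le, ← hw, pow_orderOf_eq_one]
    have h4 : w ^ (s - 1) * (w * v * w⁻¹) * (w ^ (s - 1))⁻¹ = v := by
      have e : w ^ (s - 1) * (w * v * w⁻¹) * (w ^ (s - 1))⁻¹ = (w ^ (s - 1) * w) * v * (w ^ (s - 1) * w)⁻¹ := by
        group
      rw [e, h3]; group
    rwa [h4] at h2
  obtain ⟨S, hSV, hSp, hSi, hyS⟩ := Cfsg.Agent.H389.RSq.exists_invariant_sylow (v := p) hs hp hw hwV h1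
  have hpV : p ∣ Nat.card V := by rw [← hg]; exact Subgroup.orderOf_dvd_natCard _ hgV
  obtain ⟨b, hb⟩ := IsPGroup.iff_card.1 hSp
  have hb0 : b ≠ 0 := by
    rintro rfl
    rw [pow_zero] at hb
    apply hSi
    rw [Subgroup.eq_bot_of_card_eq _ hb, relIndex_bot_left]
    exact hpV
  have hb1 : b = 1 := by
    by_contra hne
    apply h2
    refine (pow_dvd_pow p (show 2 ≤ b by omega)).trans ?_
    rw [← hb]
    exact card_subgroup_dvd_card S
  rw [hb1, pow_one] at hb
  obtain ⟨h, hh⟩ := exists_prime_orderOf_dvd_card' (G := S) p (by rw [hb])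
  have hho : orderOf (h : G) = p := by rw [Subgroup.orderOf_coe, hh]
  have hSz : zpowers (h : G) = S := by
    refine Subgroup.eq_of_le_of_card_ge (by rw [zpowers_le]; exact h.2) ?_
    rw [Nat.card_zpowers, hho, hb]
  obtain ⟨v, -, hv⟩ := exists_conj_in hp h2 hg hho (mem_top g) (mem_top (h : G))
  refine ⟨v⁻¹, ?_⟩
  have hk : ∀ u : G, u ∈ normalizer (S : Set G) → v⁻¹ * u * v ∈ normalizer (zpowers g : Set G) := by
    intro u hu
    have key : ∀ u : G, u ∈ normalizer (S : Set G) → ∀ c ∈ zpowers g, (v⁻¹ * u * v) * c * (v⁻¹ * u * v)⁻¹ ∈ zpowers g := by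
      intro u hu c hc
      have h5 : v * c * v⁻¹ ∈ zpowers (h : G) := conj_mem_zpowers hv hc
      rw [hSz] at h5
      have h6 := (mem_normalizer_iff.1 hu _).1 h5
      rw [← hSz] at h6
      have h7 := conj_mem_back hp hg hho hv h6
      have e : v⁻¹ * u * v * c * (v⁻¹ * u * v)⁻¹ = v⁻¹ * (u * (v * c * v⁻¹) * u⁻¹) * v := by group
      rwa [e]
    rw [mem_normalizer_iff]
    intro c
    refine ⟨key u hu c, fun h5 => ?_⟩
    have h6 := key u⁻¹ ((normalizer (S : Set G)).inv_mem hu) _ h5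
    have e : v⁻¹ * u⁻¹ * v * (v⁻¹ * u * v * c * (v⁻¹ * u * v)⁻¹) * (v⁻¹ * u⁻¹ * v)⁻¹ = c := by group
    rwa [e] at h6
  have h8 := hk w hyS
  rwa [inv_inv]

theorem card_cent_conj (x w : G) : Nat.card (centralizer ({x * w * x⁻¹} : Set G)) = Nat.card (centralizer ({w} : Set G)) := by
  have h1 : centralizer ({x * w * x⁻¹} : Set G) = (centralizer ({w} : Set G)).map (MulAut.conj x).toMonoidHom := by
    ext c
    constructor
    · intro h
      refine ⟨x⁻¹ * c * x, ?_, ?_⟩
      · have h2 := mem_centralizer_singleton_iff.1 h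
        refine mem_centralizer_singleton_iff.2 ?_
        calc x⁻¹ * c * x * w = x⁻¹ * (c * (x * w * x⁻¹)) * x := by group
          _ = x⁻¹ * ((x * w * x⁻¹) * c) * x := by rw [h2]
          _ = w * (x⁻¹ * c * x) := by group
      · show x * (x⁻¹ * c * x) * x⁻¹ = c
        group
    · rintro ⟨d, hd, rfl⟩
      have h2 := mem_centralizer_singleton_iff.1 hd
      refine mem_centralizer_singleton_iff.2 ?_
      show x * d * x⁻¹ * (x * w * x⁻¹) = x * w * x⁻¹ * (x * d * x⁻¹)
      calc x * d * x⁻¹ * (x * w * x⁻¹) = x * (d * w) * x⁻¹ := by group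
        _ = x * (w * d) * x⁻¹ := by rw [h2]
        _ = _ := by group
  rw [h1]
  exact card_map_of_injective (MulAut.conj x).injective

theorem card_cent_zpowers {a b : G} (h : zpowers a = zpowers b) :
    Nat.card (centralizer ({a} : Set G)) = Nat.card (centralizer ({b} : Set G)) := by
  have key : ∀ a b : G, zpowers a = zpowers b → centralizer ({a} : Set G) ≤ centralizer ({b} : Set G) := by
    intro a b h c hc
    obtain ⟨i, hi⟩ := mem_zpowers_iff.1 (h ▸ mem_zpowers b : b ∈ zpowers a)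
    have h1 : Commute c a := mem_centralizer_singleton_iff.1 hc
    rw [mem_centralizer_singleton_iff, ← hi]
    exact h1.zpow_right i
  rw [le_antisymm (key a b h) (key b a h.symm)]

/-- **Primes `p` with `s ∣ p - 1`.** -/
theorem ni_of_gl (hs : s.Prime) (hp : p.Prime) (hps : p ≠ s) (hc : center G = ⊥) (h2 : ¬ p ^ 2 ∣ Nat.card G)
    (hsp : ¬ s ^ 2 ∣ p - 1) {A : Subgroup G} (hA : Nat.card A = s ^ 2)
    (hAp : ∀ a ∈ A, orderOf a = s → ¬ p ∣ Nat.card (centralizer ({a} : Set G)))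
    {y : G} (hy : orderOf y = s) {n : ℕ} (hn : s ^ n ∣ Nat.card G)
    (hyn : ¬ s ^ n ∣ Nat.card (centralizer ({y} : Set G))) : NI s p G := by
  intro g hg hPC hFC
  have hsf : Fact s.Prime := ⟨hs⟩
  have hpf : Fact p.Prime := ⟨hp⟩
  obtain ⟨T₀⟩ : Nonempty (Sylow s (normalizer (zpowers g : Set G))) := inferInstance
  set T : Subgroup G := (T₀ : Subgroup (normalizer (zpowers g : Set G))).map (normalizer (zpowers g : Set G)).subtype
    with hTdef
  have hTN : T ≤ normalizer (zpowers g : Set G) := map_subtype_le _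
  have hTc : Nat.card T = Nat.card (T₀ : Subgroup (normalizer (zpowers g : Set G))) :=
    card_map_of_injective (Subgroup.subtype_injective _)
  obtain ⟨a, haT⟩ : ∃ a : ℕ, Nat.card T = s ^ a := by
    obtain ⟨a, ha⟩ := IsPGroup.iff_card.1 T₀.isPGroup'
    exact ⟨a, by rw [hTc, ha]⟩
  have ha : ¬ s ^ (a + 1) ∣ Nat.card (normalizer (zpowers g : Set G)) := by
    intro h
    have h3 := T₀.pow_dvd_card_of_pow_dvd_card h
    rw [← hTc, haT] at h3
    exact absurd (Nat.le_of_dvd (pow_pos hs.pos a) h3) (not_le.2 (Nat.pow_lt_pow_right hs.one_lt (Nat.lt_succ_self a)))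
  by_cases hQ : ∃ q ∈ T, q ≠ 1 ∧ q * g = g * q
  · obtain ⟨q, hq, hq1, hqg⟩ := hQ
    have h3 := not_dvd_card hs hp hps (m := mm s) (le_trans (by norm_num) (le_max_left _ _)) hc h2 hg hPC hFC ha haT
      hTN hq hq1 hqg
    -- `T` is a Sylow subgroup of `G`; `A` is conjugate to a subgroup
    have hTs : ¬ s ∣ T.index := by
      intro h4
      apply h3
      rw [← T.card_mul_index, haT, pow_succ]
      exact Nat.mul_dvd_mul_left _ h4
    have hTp : IsPGroup s T := IsPGroup.of_card haT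
    obtain ⟨S, hS⟩ := (IsPGroup.of_card hA : IsPGroup s A).exists_le_sylow
    obtain ⟨x, hx⟩ := MulAction.exists_smul_eq G S (hTp.toSylow hTs)
    have hx' : (S : Subgroup G).map (MulAut.conj x).toMonoidHom = T := congrArg Sylow.toSubgroup hx
    have hAT : A.map (MulAut.conj x).toMonoidHom ≤ T := by
      rw [← hx']
      exact Subgroup.map_mono hS
    obtain ⟨b, hb, hbo, hbg⟩ := exists_comm_of_sq hs hp hsp hg (A := A.map (MulAut.conj x).toMonoidHom)
      (by rw [Subgroup.card_map_of_injective (MulAut.conj x).injective, hA]) (hAT.trans hTN)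
    obtain ⟨c, hcA, rfl⟩ := hb
    have hbo' : orderOf (x * c * x⁻¹) = s := hbo
    rw [orderOf_conj''] at hbo'
    refine hAp c hcA hbo' ?_
    have hbg' : x * c * x⁻¹ * g = g * (x * c * x⁻¹) := hbg
    have h4 : x⁻¹ * g * x ∈ centralizer ({c} : Set G) := by
      rw [mem_centralizer_singleton_iff]
      calc x⁻¹ * g * x * c = x⁻¹ * (g * (x * c * x⁻¹)) * x := by group
        _ = x⁻¹ * (x * c * x⁻¹ * g) * x := by rw [hbg']
        _ = c * (x⁻¹ * g * x) := by group
    have h5 : orderOf (x⁻¹ * g * x) = p := by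
      have := orderOf_conj'' x⁻¹ g
      rw [inv_inv] at this
      rw [this, hg]
    rw [← h5, ← Subgroup.orderOf_mk _ h4]
    exact orderOf_dvd_natCard _
  · -- no element of order `s` commutes with `g`
    push Not at hQ
    have hno : ∀ w : G, orderOf w = s → w * g ≠ g * w := by
      intro w hw hwg
      have hwN : w ∈ normalizer (zpowers g : Set G) := by
        rw [mem_normalizer_iff]
        have hcom : ∀ c ∈ zpowers g, w * c = c * w := by
          rintro c ⟨i, rfl⟩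
          exact (show Commute w g from hwg).zpow_right i
        have e1 : ∀ c ∈ zpowers g, w * c * w⁻¹ = c := fun c hc => by rw [hcom c hc]; group
        intro c
        refine ⟨fun h => by rw [e1 c h]; exact h, fun h => ?_⟩
        have h3 : w⁻¹ * (w * c * w⁻¹) = (w * c * w⁻¹) * w⁻¹ := by
          have h4 := hcom _ h
          calc w⁻¹ * (w * c * w⁻¹) = w⁻¹ * ((w * c * w⁻¹) * w) * w⁻¹ := by group
            _ = w⁻¹ * (w * (w * c * w⁻¹)) * w⁻¹ := by rw [h4]
            _ = _ := by group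
        have h5 : c = w * c * w⁻¹ := by
          calc c = w⁻¹ * (w * c * w⁻¹) * w := by group
            _ = (w * c * w⁻¹) * w⁻¹ * w := by rw [h3]
            _ = _ := by group
        rw [h5]; exact h
      have hpg : IsPGroup s (zpowers (⟨w, hwN⟩ : normalizer (zpowers g : Set G))) := by
        refine IsPGroup.of_card (n := 1) ?_
        rw [Nat.card_zpowers, Subgroup.orderOf_mk, hw, pow_one]
      obtain ⟨S, hS⟩ := hpg.exists_le_sylow
      obtain ⟨m, hm⟩ := MulAction.exists_smul_eq (normalizer (zpowers g : Set G)) S T₀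
      have h3 : m * ⟨w, hwN⟩ * m⁻¹ ∈ (T₀ : Subgroup (normalizer (zpowers g : Set G))) := by
        rw [← hm]
        exact ⟨⟨w, hwN⟩, hS (mem_zpowers _), rfl⟩
      have h4 : (m : G) * w * (m : G)⁻¹ ∈ T := ⟨_, h3, rfl⟩
      refine hQ _ h4 ?_ ?_
      · intro h5
        have h6 : w = 1 := by
          have : w = (m : G)⁻¹ * ((m : G) * w * (m : G)⁻¹) * m := by group
          rw [this, h5]; group
        rw [h6, orderOf_one] at hw
        exact hs.one_lt.ne hw
      · -- `m g m⁻¹` generates `⟨g⟩`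
        have h5 : (m : G)⁻¹ * g * (m : G)⁻¹⁻¹ ∈ zpowers g :=
          (mem_normalizer_iff.1 ((normalizer (zpowers g : Set G)).inv_mem m.2) g).1 (mem_zpowers g)
        rw [inv_inv] at h5
        obtain ⟨i, hi⟩ := mem_zpowers_iff.1 h5
        have h6 : Commute w (g ^ i) := (show Commute w g from hwg).zpow_right i
        rw [hi] at h6
        have h7 := h6.eq
        calc (m : G) * w * (m : G)⁻¹ * g = m * (w * ((m : G)⁻¹ * g * m)) * (m : G)⁻¹ := by group
          _ = m * (((m : G)⁻¹ * g * m) * w) * (m : G)⁻¹ := by rw [h7]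
          _ = g * (m * w * (m : G)⁻¹) := by group
    -- `s ^ 2` does not divide `|N(⟨g⟩)|`
    have hsN : ¬ s ^ 2 ∣ Nat.card (normalizer (zpowers g : Set G)) := by
      intro h
      obtain ⟨B, hB⟩ := Sylow.exists_subgroup_card_pow_prime s h
      obtain ⟨b, hb, hbo, hbg⟩ := exists_comm_of_sq hs hp hsp hg
        (A := B.map (normalizer (zpowers g : Set G)).subtype)
        (by rw [Subgroup.card_map_of_injective (Subgroup.subtype_injective _), hB]) (map_subtype_le _)
      exact hno b hbo hbg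
    -- an element of order `s` central in a subgroup of order `s ^ n`
    have hn0 : n ≠ 0 := by
      rintro rfl
      exact hyn (by rw [pow_zero]; exact one_dvd _)
    obtain ⟨R, hR⟩ := Sylow.exists_subgroup_card_pow_prime s hn
    have hRp : IsPGroup s R := IsPGroup.of_card hR
    have : Nontrivial R := by
      rw [← Finite.one_lt_card_iff_nontrivial, hR]
      exact Nat.one_lt_pow hn0 hs.one_lt
    have hcn := hRp.center_nontrivial
    have hcs : s ∣ Nat.card (center R) := by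
      obtain ⟨k, hk⟩ := IsPGroup.iff_card.1 (hRp.to_subgroup (center R))
      rcases Nat.eq_zero_or_pos k with rfl | hk0
      · rw [pow_zero] at hk
        rw [← Finite.one_lt_card_iff_nontrivial, hk] at hcn
        exact absurd hcn (lt_irrefl 1)
      · rw [hk]
        exact dvd_pow_self s hk0.ne'
    obtain ⟨u, hu⟩ := exists_prime_orderOf_dvd_card' s hcs
    have huo : orderOf ((u : R) : G) = s := by rw [Subgroup.orderOf_coe, Subgroup.orderOf_coe, hu]
    have huR : s ^ n ∣ Nat.card (centralizer ({((u : R) : G)} : Set G)) := by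
      rw [← hR]
      refine card_dvd_of_le ?_
      intro r hr
      rw [mem_centralizer_singleton_iff]
      exact congrArg Subtype.val (mem_center_iff.1 u.2 ⟨r, hr⟩)
    obtain ⟨x₁, hx₁⟩ := exists_norm hs hp hc h2 hg hFC hy
    obtain ⟨x₂, hx₂⟩ := exists_norm hs hp hc h2 hg hFC huo
    obtain ⟨v, -, hv⟩ := exists_conj_in' hs hsN (g := x₁ * y * x₁⁻¹) (h := x₂ * ((u : R) : G) * x₂⁻¹)
      (by rw [orderOf_conj'', hy]) (by rw [orderOf_conj'', huo]) hx₁ hx₂
    have h3 := zpowers_eq hs (by rw [orderOf_conj'', hy]) (by rw [orderOf_conj'', huo]) hv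
    have h4 := card_cent_zpowers h3
    rw [card_cent_conj, card_cent_conj, card_cent_conj] at h4
    exact hyn (h4 ▸ huR)

end Main

end Cfsg.Agent.H626.PiSpor
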